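import Cfsg.Agent.H531.RealMove
import Cfsg.Agent.Lib.MinNormalNonabelian
import Cfsg.Agent.S0144

/-!
# TEAM GW: solvability of `X` from the action of `x` (helper511)

`isSolvable_of_gen` : `X` is normal of prime index `p` in `Y`, `p ∤ |X|`, every normal subgroup of `Y` not in `X` is `Y`;
no prime divisor of `|X|` is `1` mod `p`, and `q ^ p ∤ |X|` for all primes `q ≥ 5`. Then `X` is solvable.
-/

set_option autoImplicit false

namespace Cfsg.Agent.H511.GW

open Subgroup Cfsg.Agent.H531 Cfsg.Agent.Lib.MinNormalNonabelian Cfsg.Agent.Lib.MinNormal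

universe u

/-- `RealMove` for all nonabelian simple groups (proved in `H531.RMAll`) -/
def RMA : Prop :=
  ∀ (S : Type u) [Group S] [Finite S] [IsSimpleGroup S], ¬ IsMulCommutative S → RealMove S

theorem exists_minimal {G : Type u} [Group G] [Finite G] {M : Subgroup G} (hM : M.Normal) (hM1 : M ≠ ⊥) :
    ∃ N : Subgroup G, N.Normal ∧ N ≠ ⊥ ∧ N ≤ M ∧ ∀ L : Subgroup G, L.Normal → L ≤ N → L = ⊥ ∨ L = N := by
  have hfin : {L : Subgroup G | L.Normal ∧ L ≠ ⊥ ∧ L ≤ M}.Finite := Set.toFinite _
  obtain ⟨N, ⟨h1, h2, h3⟩, hmin⟩ := hfin.exists_minimal ⟨M, hM, hM1, le_rfl⟩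
  refine ⟨N, h1, h2, h3, fun L hL hLN => ?_⟩
  by_cases hL1 : L = ⊥
  · exact Or.inl hL1
  · exact Or.inr (le_antisymm hLN (hmin ⟨hL, hL1, hLN.trans h3⟩ hLN))

/-- The action on the components. -/
@[reducible] def act {G : Type*} [Group G] (N : Subgroup G) [N.Normal] : MulAction G (minSet N) where
  smul g T := ⟨T.1.map (MulAut.conj g).toMonoidHom, map_conj_mem_minSet T.2 g⟩
  one_smul _ := Subtype.ext (map_conj_one _)
  mul_smul g h _ := Subtype.ext (map_conj_map_conj g h _).symm

/-- a nonabelian finite simple group has a prime divisor `≥ 5` -/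
theorem exists_prime_ge_five {S : Type*} [Group S] [Finite S] (hns : ¬ Group.IsSolvable S) :
    ∃ q : ℕ, q.Prime ∧ 5 ≤ q ∧ q ∣ Nat.card S := by
  by_contra hcon
  push Not at hcon
  apply hns
  have h1 : ∀ q : ℕ, q.Prime → q ∣ Nat.card S → q = 2 ∨ q = 3 := by
    intro q hq hd
    have h2 : q < 5 := by
      by_contra h
      exact hcon q hq (by omega) hd
    have := hq.two_le
    interval_cases q
    · exact Or.inl rfl
    · exact Or.inr rfl
    · exact absurd hq (by norm_num)
  have hne : Nat.card S ≠ 0 := Nat.card_pos.ne'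
  obtain ⟨a, m, hm, hcm⟩ := Nat.exists_eq_pow_mul_and_not_dvd hne 2 (by norm_num)
  have hm0 : m ≠ 0 := by
    rintro rfl
    exact hm (dvd_zero _)
  have h2 : m = 3 ^ m.primeFactorsList.length := by
    refine Nat.eq_prime_pow_of_unique_prime_dvd hm0 fun {d} hd hdm => ?_
    rcases h1 d hd (hcm ▸ hdm.mul_left _) with h | h
    · subst h
      exact absurd hdm hm
    · exact h
  rw [h2] at hcm
  exact S0144.result 2 3 _ _ Nat.prime_two Nat.prime_three hcm

/-- an automorphism of order `p` moving a cyclic subgroup into itself -/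
theorem exists_prime_of_move {S : Type*} [Group S] [Finite S] {p : ℕ} (hp : p.Prime) (hpS : ¬ p ∣ Nat.card S)
    {α : MulAut S} (hα : α ^ p = 1) {z : S} (hz : α z ∈ zpowers z) (hne : α z ≠ z) :
    ∃ q : ℕ, q.Prime ∧ q ∣ Nat.card S ∧ p ∣ q - 1 := by
  obtain ⟨k, hk⟩ : ∃ k : ℕ, z ^ k = α z := by
    have h1 := (isOfFinOrder_of_finite z).mem_powers_iff_mem_zpowers.2 hz
    obtain ⟨k, hk⟩ := h1
    exact ⟨k, hk⟩
  have hpow : ∀ i : ℕ, (α ^ i) z = z ^ (k ^ i) := by
    intro i
    induction i with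
    | zero => simp
    | succ i ih =>
      rw [pow_succ', MulAut.mul_apply, ih, map_pow, ← hk, ← pow_mul, pow_succ']
  have h1 : z ^ (k ^ p) = z ^ 1 := by
    rw [← hpow, hα, pow_one]
    rfl
  have h2 : k ^ p ≡ 1 [MOD orderOf z] := pow_eq_pow_iff_modEq.1 h1
  have h3 : ((k : ZMod (orderOf z))) ^ p = 1 := by
    rw [← Nat.cast_pow, ← Nat.cast_one]
    exact (ZMod.natCast_eq_natCast_iff _ _ _).2 h2
  have h4 : (k : ZMod (orderOf z)) ≠ 1 := by
    intro h5
    rw [← Nat.cast_one, ZMod.natCast_eq_natCast_iff] at h5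
    have h6 := pow_eq_pow_iff_modEq.2 h5
    rw [pow_one, hk] at h6
    exact hne h6
  set m := orderOf z with hm
  have hmpos : 0 < m := orderOf_pos z
  have : NeZero m := ⟨hmpos.ne'⟩
  let v : (ZMod m)ˣ := Units.ofPowEqOne (k : ZMod m) p h3 hp.ne_zero
  have hv1 : v ^ p = 1 := Units.ext (by rw [Units.val_pow_eq_pow_val, Units.val_one]; exact h3)
  have hv2 : v ≠ 1 := by
    intro h
    exact h4 (congrArg Units.val h)
  have : Fact p.Prime := ⟨hp⟩
  have hv3 : orderOf v = p := orderOf_eq_prime hv1 hv2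
  have h5 : p ∣ m.totient := by
    rw [← ZMod.card_units_eq_totient, ← hv3]
    exact orderOf_dvd_card
  have hmS : m ∣ Nat.card S := orderOf_dvd_natCard z
  rw [Nat.totient_eq_div_primeFactors_mul] at h5
  rcases (Nat.Prime.dvd_mul hp).1 h5 with h6 | h6
  · exfalso
    exact hpS ((h6.trans (Nat.div_dvd_of_dvd (Nat.prod_primeFactors_dvd m))).trans hmS)
  · obtain ⟨q, hq, hpq⟩ := (Prime.dvd_finsetProd_iff hp.prime _).1 h6
    exact ⟨q, Nat.prime_of_mem_primeFactors hq, (Nat.dvd_of_mem_primeFactors hq).trans hmS, hpq⟩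

/-- The centralizer of a nonabelian minimal normal subgroup contains `x`. -/
theorem mem_cen_of_nonab (hRM : RMA.{u}) {Y : Type u} [Group Y] [Finite Y] {p : ℕ} (hp : p.Prime) {N : Subgroup Y} (hNn : N.Normal)
    (hmin : ∀ L : Subgroup Y, L.Normal → L ≤ N → L = ⊥ ∨ L = N) (hna : ¬ ∀ a ∈ N, ∀ b ∈ N, Commute a b)
    (hcop : ¬ p ∣ Nat.card N) (h1 : ∀ q : ℕ, q.Prime → q ∣ Nat.card N → ¬ p ∣ q - 1)
    (h5 : ∀ q : ℕ, q.Prime → 5 ≤ q → ¬ q ^ p ∣ Nat.card N) {x : Y} (hx : x ^ p = 1) :
    x ∈ centralizer (N : Set Y) := by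
  classical
  have hpf : Fact p.Prime := ⟨hp⟩
  obtain ⟨hne, hind, hsup, hsimple, hcen, hconj⟩ := nonabelian_structure N hmin hna
  have hns : ∀ T ∈ minSet N, ¬ Group.IsSolvable T := by
    intro T hT hsol
    have hs := hsimple T hT
    have hab : ∀ a b : T, a * b = b * a := IsSimpleGroup.comm_iff_isSolvable.2 hsol
    have hT2 := hT
    rw [mem_minSet] at hT2
    apply hT2.2.1
    rw [eq_bot_iff]
    intro z hz
    rw [mem_bot]
    exact hcen T hT z hz fun t ht => congrArg Subtype.val (hab ⟨z, hz⟩ ⟨t, ht⟩)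
  have hTN : ∀ T ∈ minSet N, T ≤ N := fun T hT => (mem_minSet.1 hT).1
  -- every member is normalised by `x`
  have hnorm : ∀ T ∈ minSet N, T.map (MulAut.conj x).toMonoidHom = T := by
    intro T hT
    by_contra hmove
    let _ := act N
    have hfin : Finite (minSet N) := inferInstance
    let T' : minSet N := ⟨T, hT⟩
    have hZ : IsPGroup p (zpowers x) := by
      refine IsPGroup.of_card_dvd_pow (n := 1) ?_
      rw [Nat.card_zpowers, pow_one]
      exact orderOf_dvd_of_pow_eq_one hx
    have horb : Nat.card (MulAction.orbit (zpowers x) T') ≠ 1 := by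
      intro h1
      have h2 : (⟨x, mem_zpowers x⟩ : zpowers x) • T' = T' := by
        have h3 : Subsingleton (MulAction.orbit (zpowers x) T') := (Nat.card_eq_one_iff_unique.1 h1).1
        exact congrArg Subtype.val (Subsingleton.elim (⟨_, MulAction.mem_orbit T' (⟨x, mem_zpowers x⟩ : zpowers x)⟩ :
          MulAction.orbit (zpowers x) T') ⟨T', MulAction.mem_orbit_self T'⟩)
      exact hmove (congrArg Subtype.val h2)
    obtain ⟨k, hk⟩ := hZ.card_orbit T'
    have hpk : p ≤ Nat.card (MulAction.orbit (zpowers x) T') := by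
      rw [hk]
      have : k ≠ 0 := by
        rintro rfl
        exact horb (by rw [hk, pow_zero])
      exact Nat.le_self_pow this p
    have hple : p ≤ Nat.card (minSet N) := hpk.trans (Nat.card_le_card_of_injective _ Subtype.val_injective)
    -- the order of `N`
    have hcard : Nat.card N = Nat.card T ^ Nat.card (minSet N) := by
      obtain ⟨e⟩ := mulEquiv_pi_of_iSupIndep (K := N) (fun S : minSet N => (S : Subgroup Y)) (fun S S' hSS a b ha hb => by
        refine commute_of_mem hind (fun R hR => (mem_minSet.1 hR).2.2.1) (fun R hR => (mem_minSet.1 hR).1)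
          S.2 S'.2 (fun h => hSS (Subtype.ext h)) ha hb) ((sSupIndep_iff _).1 hind) (by rw [← sSup_eq_iSup', hsup])
      let _ : Fintype (minSet N) := Fintype.ofFinite _
      rw [Nat.card_congr e.toEquiv, Nat.card_pi]
      have h2 : ∀ S : minSet N, Nat.card (S : Subgroup Y) = Nat.card T := by
        intro S
        obtain ⟨g, hg⟩ := hconj T hT S S.2
        rw [hg]
        exact (Nat.card_congr (T.equivMapOfInjective _ (MulAut.conj g).injective).toEquiv).symm
      rw [Finset.prod_congr rfl (fun S _ => h2 S), Finset.prod_const, Finset.card_univ, Nat.card_eq_fintype_card (α := minSet N)]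
    obtain ⟨q, hq, hq5, hqd⟩ := exists_prime_ge_five (hns T hT)
    apply h5 q hq hq5
    rw [hcard]
    exact (pow_dvd_pow_of_dvd hqd p).trans (pow_dvd_pow _ hple)
  have hle : N ≤ centralizer ({x} : Set Y) := by
    rw [← hsup]
    refine sSup_le fun T hT => ?_
    have hxn : x ∈ normalizer (T : Set Y) := by
      rw [mem_normalizer_iff]
      intro t
      constructor
      · intro ht
        rw [← hnorm T hT]
        exact ⟨t, ht, rfl⟩
      · intro ht
        rw [← hnorm T hT] at ht
        obtain ⟨s, hs, hst⟩ := ht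
        have h2 : s = t := (MulAut.conj x).injective hst
        exact h2 ▸ hs
    have hs := hsimple T hT
    have hTcop : ¬ p ∣ Nat.card T := fun h => hcop (h.trans (card_dvd_of_le (hTN T hT)))
    set α : MulAut T := T.normalizerMonoidHom ⟨x, hxn⟩ with hα
    have hαx : ∀ z : T, ((α z : T) : Y) = x * z * x⁻¹ := fun z => rfl
    have hαp : α ^ p = 1 := by
      rw [hα, ← map_pow]
      have h2 : (⟨x, hxn⟩ : normalizer (T : Set Y)) ^ p = 1 := Subtype.ext hx
      rw [h2, map_one]
    have hα1 : α = 1 := by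
      by_contra hne1
      have hnc : ¬ IsMulCommutative T := by
        intro hc
        exact hns T hT (IsSimpleGroup.comm_iff_isSolvable.1 fun a b => hc.is_comm.comm a b)
      obtain ⟨z, t, hz1, hz2, -⟩ := hRM T hnc p α hp hTcop hαp hne1
      obtain ⟨q, hq, hqd, hqp⟩ := exists_prime_of_move hp hTcop hαp hz1 hz2
      exact h1 q hq (hqd.trans (card_dvd_of_le (hTN T hT))) hqp
    intro t ht
    rw [mem_centralizer_singleton_iff]
    have h2 := hαx ⟨t, ht⟩
    rw [hα1] at h2
    have h3 : t = x * t * x⁻¹ := h2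
    calc t * x = x * t * x⁻¹ * x := by rw [← h3]
      _ = x * t := by group
  rw [mem_centralizer_iff]
  intro t ht
  exact (mem_centralizer_singleton_iff.1 (hle ht))

/-- **Solvability of `X`.** -/
theorem isSolvable_of_gen (hRM : RMA.{u}) {p : ℕ} (hp : p.Prime) : ∀ (m : ℕ) (Y : Type u) [Group Y] [Finite Y] (X : Subgroup Y),
    Nat.card Y = m → X.Normal → X.index = p → ¬ p ∣ Nat.card X → (∀ M : Subgroup Y, M.Normal → ¬ M ≤ X → M = ⊤) →
    (∀ q : ℕ, q.Prime → q ∣ Nat.card X → ¬ p ∣ q - 1) → (∀ q : ℕ, q.Prime → 5 ≤ q → ¬ q ^ p ∣ Nat.card X) →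
    Group.IsSolvable X := by
  intro m
  induction m using Nat.strong_induction_on with
  | _ m ih =>
  intro Y _ _ X hm hXn hidx hcop hgen h1 h5
  have hpf : Fact p.Prime := ⟨hp⟩
  by_cases hX : X = ⊥
  · subst hX
    infer_instance
  obtain ⟨N, hNn, hN1, hNX, hmin⟩ := exists_minimal hXn hX
  have hNcard : Nat.card N ∣ Nat.card X := card_dvd_of_le hNX
  by_cases hab : ∀ a ∈ N, ∀ b ∈ N, Commute a b
  · -- quotient
    have hlt : Nat.card (Y ⧸ N) < m := by
      have h2 := card_eq_card_quotient_mul_card_subgroup N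
      have h3 : 1 < Nat.card N := by
        have h4 : Nat.card N ≠ 1 := fun h => hN1 (card_eq_one.1 h)
        have h5 : 0 < Nat.card N := Nat.card_pos
        omega
      have h4 : 0 < Nat.card (Y ⧸ N) := Nat.card_pos
      rw [← hm, h2]
      nlinarith
    have hXq : Nat.card (X.map (QuotientGroup.mk' N)) ∣ Nat.card X :=
      card_dvd_of_surjective _ ((QuotientGroup.mk' N).subgroupMap_surjective X)
    have hsol : Group.IsSolvable (X.map (QuotientGroup.mk' N)) := by
      refine ih _ hlt (Y ⧸ N) (X.map (QuotientGroup.mk' N)) rfl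
        (hXn.map _ (QuotientGroup.mk'_surjective N)) ?_ (fun h => hcop (h.trans hXq)) ?_
        (fun q hq hqd => h1 q hq (hqd.trans hXq)) (fun q hq hq5 hqd => h5 q hq hq5 (hqd.trans hXq))
      · rw [index_map_eq X (QuotientGroup.mk'_surjective N) (by rw [QuotientGroup.ker_mk']; exact hNX), hidx]
      · intro M hM hMX
        have h2 := hgen (M.comap (QuotientGroup.mk' N)) (hM.comap _) (fun h => hMX (by
          rw [← map_comap_eq_self_of_surjective (QuotientGroup.mk'_surjective N) M]
          exact map_mono h))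
        rw [eq_top_iff]
        intro y _
        obtain ⟨z, rfl⟩ := QuotientGroup.mk'_surjective N y
        have h3 : z ∈ M.comap (QuotientGroup.mk' N) := by rw [h2]; trivial
        exact h3
    have hNsol : Group.IsSolvable N := Group.isSolvable_of_comm fun a b => Subtype.ext (hab a a.2 b b.2)
    refine Group.isSolvable_of_ker_le_range (inclusion hNX) ((QuotientGroup.mk' N).subgroupMap X) ?_
    intro y hy
    have h2 : (QuotientGroup.mk' N) (y : Y) = 1 := congrArg Subtype.val (MonoidHom.mem_ker.1 hy)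
    have h3 : (y : Y) ∈ N := (QuotientGroup.eq_one_iff _).1 h2
    exact ⟨⟨y, h3⟩, Subtype.ext rfl⟩
  · exfalso
    have hpY : p ∣ Nat.card Y := by rw [← X.card_mul_index, hidx]; exact dvd_mul_left _ _
    obtain ⟨x, hx⟩ := exists_prime_orderOf_dvd_card' p hpY
    have hxX : x ∉ X := by
      intro h
      apply hcop
      rw [← hx]
      exact orderOf_dvd_natCard X h
    have h2 := mem_cen_of_nonab hRM hp hNn hmin hab (fun h => hcop (h.trans hNcard))
      (fun q hq hqd => h1 q hq (hqd.trans hNcard)) (fun q hq hq5 hqd => h5 q hq hq5 (hqd.trans hNcard))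
      (x := x) (by rw [← hx, pow_orderOf_eq_one])
    have h3 := hgen (centralizer (N : Set Y)) inferInstance (fun h => hxX (h h2))
    apply hab
    intro a ha b hb
    have h4 : a ∈ centralizer (N : Set Y) := by rw [h3]; trivial
    exact (mem_centralizer_iff.1 h4 b hb).symm

end Cfsg.Agent.H511.GW
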