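import Cfsg.Agent.H511.GW.SolvGen
import Cfsg.Agent.H511.GW.SolvThree
import Cfsg.Agent.H511.GW.SpCard

/-!
# TEAM GW: `X` is solvable in the small cases (helper511)

`RMA` is proved in `H531.RMAll` (`realMoveAll`).
-/

set_option autoImplicit false

namespace Cfsg.Agent.H511.GW

open Cfsg.Agent.H662.GW

universe u v

theorem prod_dvd {n : ℕ} (hn : n ≤ 5) : 2 ^ (n ^ 2) * ∏ i ∈ Finset.range n, (2 ^ (2 * (i + 1)) - 1) ∣
    2 ^ 25 * (3 * 15 * 63 * 255 * 1023) := by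
  interval_cases n <;> norm_num [Finset.prod_range_succ]

theorem prod_dvd' {n : ℕ} (hn : n ≤ 4) : 2 ^ (n ^ 2) * ∏ i ∈ Finset.range n, (2 ^ (2 * (i + 1)) - 1) ∣
    2 ^ 16 * (3 ^ 5 * (5 ^ 2 * (7 * 17))) := by
  interval_cases n <;> norm_num [Finset.prod_range_succ]

theorem prime_of_dvd {q : ℕ} (hq : q.Prime) (hd : q ∣ 2 ^ 16 * (3 ^ 5 * (5 ^ 2 * (7 * 17)))) :
    q = 2 ∨ q = 3 ∨ q = 5 ∨ q = 7 ∨ q = 17 := by
  rcases (Nat.Prime.dvd_mul hq).1 hd with h | h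
  · exact Or.inl ((Nat.prime_dvd_prime_iff_eq hq Nat.prime_two).1 (hq.dvd_of_dvd_pow h))
  rcases (Nat.Prime.dvd_mul hq).1 h with h | h
  · exact Or.inr (Or.inl ((Nat.prime_dvd_prime_iff_eq hq Nat.prime_three).1 (hq.dvd_of_dvd_pow h)))
  rcases (Nat.Prime.dvd_mul hq).1 h with h | h
  · exact Or.inr (Or.inr (Or.inl ((Nat.prime_dvd_prime_iff_eq hq (by norm_num)).1 (hq.dvd_of_dvd_pow h))))
  rcases (Nat.Prime.dvd_mul hq).1 h with h | h
  · exact Or.inr (Or.inr (Or.inr (Or.inl ((Nat.prime_dvd_prime_iff_eq hq (by norm_num)).1 h))))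
  · exact Or.inr (Or.inr (Or.inr (Or.inr ((Nat.prime_dvd_prime_iff_eq hq (by norm_num)).1 h))))

/-- `X` is solvable: `p = 3`, `n ≤ 5`. -/
theorem isSolvable_small_three {n : ℕ} {Y U : Type*} [Group Y] [Finite Y] [AddCommGroup U] [Finite U]
    [DistribMulAction Y U] {X : Subgroup Y} {x : Y} {B : U → U → ZMod 2} (h : SR (U := U) 3 2 n X x B) (hn : n ≤ 5) :
    Group.IsSolvable X :=
  isSolvable_three h.cop ((card_dvd_sr h).trans (prod_dvd hn))

/-- `X` is solvable: `p = 5, 7`, `n ≤ 4`. -/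
theorem isSolvable_small_core (hRM : RMA.{u}) {p n : ℕ} {Y : Type u} {U : Type v} [Group Y] [Finite Y] [AddCommGroup U] [Finite U]
    [DistribMulAction Y U] {X : Subgroup Y} {x : Y} {B : U → U → ZMod 2} (h : SR (U := U) p 2 n X x B)
    (hp : p = 5 ∨ p = 7) (hn : n ≤ 4) : Group.IsSolvable X := by
  have hd := (card_dvd_sr h).trans (prod_dvd' hn)
  refine isSolvable_of_gen hRM h.hp _ Y X rfl h.nX h.idx h.cop h.gen ?_ ?_
  · intro q hq hqd
    have h1 := prime_of_dvd hq (hqd.trans hd)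
    have hqp : q ≠ p := fun h2 => h.cop (h2 ▸ hqd)
    rcases hp with rfl | rfl <;> rcases h1 with rfl | rfl | rfl | rfl | rfl <;> first | exact absurd rfl hqp | norm_num
  · intro q hq hq5 hqd
    have h1 := prime_of_dvd hq ((dvd_pow_self q h.hp.ne_zero).trans (hqd.trans hd))
    have h2 : q ^ 5 ∣ 2 ^ 16 * (3 ^ 5 * (5 ^ 2 * (7 * 17))) := by
      refine (pow_dvd_pow q ?_).trans (hqd.trans hd)
      rcases hp with rfl | rfl <;> norm_num
    rcases h1 with rfl | rfl | rfl | rfl | rfl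
    · omega
    · omega
    all_goals norm_num at h2

end Cfsg.Agent.H511.GW
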